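import Cfsg.Agent.Lib.Helper11.P3c0.Top

set_option autoImplicit false
set_option maxRecDepth 100000

namespace Cfsg.Agent.Lib.Helper11.P3c0

set_option maxHeartbeats 0
theorem b0 : allR (guardB 8 (blk fc sc rt.get INV isH)) 3 0 = true := by decide +kernel
theorem c0 : allR (guardB 4 (cblk fc nc cc 2048 120 11090678776483259438313656736572334813745748301503266300681918322458485231222502492159897624416558312389564843845614287315896631296 gens)) 2 0 = true := by decide +kernel

end Cfsg.Agent.Lib.Helper11.P3c0
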